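import Cfsg.Agent.H514.DP.Core
import Cfsg.Agent.H514.DP.TTwo
import Cfsg.Agent.S0242

/-!
# S2454: the groups `PSL_2(q)`, `q ≥ 4` (helper623)

Every element is a product of three `p`-elements (T2 of helper514).
-/

set_option autoImplicit false
set_option linter.unusedSectionVars false

namespace Cfsg.Agent.H623.DpPsl2

open Matrix Subgroup Cfsg Cfsg.Agent.H514.DP

variable {F : Type*} [Field F] [Fintype F]

theorem card_SL2 : Nat.card (SpecialLinearGroup (Fin 2) F) = Fintype.card F * (Fintype.card F ^ 2 - 1) := by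
  have h1 := S0242.result (F := F) rfl 2 (by norm_num)
  have hq : 2 ≤ Fintype.card F := Fintype.one_lt_card
  rw [Fin.prod_univ_two] at h1
  have h3 : Fintype.card F ^ 2 - Fintype.card F ^ 1 = (Fintype.card F - 1) * Fintype.card F := by
    rw [Nat.sub_mul, one_mul, pow_one, pow_two]
  simp only [Fin.val_zero, Fin.val_one, pow_zero] at h1
  rw [h3] at h1
  have h4 : (Fintype.card F - 1) * Nat.card (SpecialLinearGroup (Fin 2) F) =
      (Fintype.card F - 1) * (Fintype.card F * (Fintype.card F ^ 2 - 1)) := by rw [h1]; ring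
  exact Nat.eq_of_mul_eq_mul_left (by omega) h4

theorem pw (h4 : 4 ≤ Fintype.card F) {p : ℕ} (hp : p.Prime)
    (hd : p ∣ Nat.card (SpecialLinearGroup (Fin 2) F)) : PW p 3 (ProjectiveSpecialLinearGroup (Fin 2) F) := by
  intro g
  obtain ⟨M, rfl⟩ := QuotientGroup.mk_surjective g
  by_cases hM : ∀ c : F, M.1 ≠ c • (1 : Matrix (Fin 2) (Fin 2) F)
  · rw [card_SL2] at hd
    have h1 : CharP F p ∨ (p ∣ Nat.card F ^ 2 - 1 ∧ 4 ≤ Nat.card F) := by
      rw [Nat.card_eq_fintype_card]
      rcases (Nat.Prime.dvd_mul hp).1 hd with h | h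
      · left
        obtain ⟨r, hr⟩ := CharP.exists F
        obtain ⟨k, hrp, hk⟩ := FiniteField.card F r
        rw [hk] at h
        have h3 := (Nat.prime_dvd_prime_iff_eq hp hrp).1 (hp.dvd_of_dvd_pow h)
        rw [h3]; exact hr
      · exact Or.inr ⟨h, h4⟩
    exact (pe_three_of_nonscalar hp h1 M hM).map (QuotientGroup.mk' (center (SpecialLinearGroup (Fin 2) F)))
  · push Not at hM
    obtain ⟨c, hc⟩ := hM
    have h1 : M ∈ center (SpecialLinearGroup (Fin 2) F) := by
      rw [mem_center_iff]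
      intro g
      apply Subtype.ext
      rw [val_mul, val_mul, hc, Matrix.mul_smul, Matrix.smul_mul, mul_one, one_mul]
    rw [(QuotientGroup.eq_one_iff M).2 h1]
    exact pe_one_elt 3

universe u

/-- **`PSL_2(q)`** -/
theorem pw_psl2 {S : Type u} [Group S] {F : Type} [Field F] [Fintype F] (h4 : 4 ≤ Fintype.card F)
    (e : Nonempty (S ≃* ProjectiveSpecialLinearGroup (Fin 2) F)) {p : ℕ} (hp : p.Prime) (hd : p ∣ Nat.card S) :
    PW p 3 S := by
  obtain ⟨e⟩ := e
  refine PW.congr (pw h4 hp ?_) e.symm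
  rw [Nat.card_congr e.toEquiv] at hd
  exact hd.trans (Subgroup.card_quotient_dvd_card _)

end Cfsg.Agent.H623.DpPsl2
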